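import Cfsg.Agent.Lib.Helper11.Fi22Rep.Data
import Cfsg.Agent.Lib.Helper11.GenModel
import Cfsg.Agent.Lib.Helper11.Fi22o.Model

/-!
# The 78-dimensional representation of the presented group Fi22 over the field of 13 elements
-/

set_option autoImplicit false
set_option maxRecDepth 100000

namespace Cfsg.Agent.Lib.Helper11.Fi22Rep

open Cfsg.Spor Cfsg.Spor.Fi22 Cfsg.Agent.Lib.Helper11.Fi22a Cfsg.Agent.Lib.Helper11.PM2

set_option maxHeartbeats 0

theorem h3OK : (List.range 17551).all (fun d =>
    Nat.beq (((d + 3 * (20165 * d / 2 ^ 18)) % 2 ^ 4) % 13) (d % 13)) = true := by decide +kernel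

theorem hq : q.Good where
  hw := by decide
  hs := by decide
  he := by decide
  h1 := by decide +kernel
  h2 := by decide +kernel
  h3 := by
    intro d hd
    have hd' : d ≤ 17550 := hd
    exact Nat.eq_of_beq_eq_true (List.all_eq_true.1 h3OK d (List.mem_range.2 (by omega)))
  h4 := by decide +kernel

theorem hid : WF q (idN q) := Nat.eq_of_beq_eq_true (by decide +kernel)

theorem wfOK : matsL.all (fun X => Nat.beq (X &&& q.mg) X) = true := by decide +kernel

theorem mats_WF : ∀ l, WF q (mats l) := by
  intro l
  unfold mats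
  by_cases hl : l < matsL.length
  · rw [List.getD_eq_getElem _ _ hl]
    exact Nat.eq_of_beq_eq_true (List.all_eq_true.1 wfOK _ (List.getElem_mem hl))
  · rw [List.getD_eq_default _ _ (by omega)]
    exact hid

theorem idOK : (baseWords edges code nodes Fi22o.INVm 9 extraE []).all (wordOne q mats) = true := by
  decide +kernel

theorem sqOK : (List.range 10).all (fun l => wordOne q mats [l, l]) = true := by
  decide +kernel

/-- the matrix of a letter -/
noncomputable def A (l : ℕ) : Matrix (Fin 78) (Fin 78) (ZMod 13) := toMat q (mats l)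

theorem A_big (l : ℕ) (hl : l = 0 ∨ 9 < l) : A l = 1 := by
  have : mats l = idN q := by
    rcases hl with rfl | hl
    · rfl
    · unfold mats
      rw [List.getD_eq_default _ _ (by
        have : matsL.length = 10 := rfl
        omega)]
  unfold A
  rw [this]
  exact toMat_idN q hq

theorem hwordsA (r : List ℕ) (h : wordOne q mats r = true) : (r.map A).prod = 1 :=
  wordOne_spec q hq mats hid mats_WF r h

theorem A_sq (l : ℕ) : A l * A l = 1 := by
  by_cases hl : l < 10
  · have := hwordsA [l, l] (List.all_eq_true.1 sqOK l (List.mem_range.2 hl))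
    simpa using this
  · rw [A_big l (Or.inr (by omega)), one_mul]

/-- the invertible matrix of a letter -/
noncomputable def v (l : ℕ) : GL (Fin 78) (ZMod 13) := ⟨A l, A l, A_sq l, A_sq l⟩

theorem v_val (l : ℕ) :
    ((v l : GL (Fin 78) (ZMod 13)) : Matrix (Fin 78) (Fin 78) (ZMod 13)) = A l := rfl

theorem v_big (l : ℕ) (hl : l = 0 ∨ 9 < l) : v l = 1 := Units.ext (A_big l hl)

theorem hwords : ∀ r ∈ baseWords edges code nodes Fi22o.INVm 9 extraE [], (r.map v).prod = 1 := by
  intro r hr
  apply Units.ext
  have := map_list_prod (Units.coeHom (Matrix (Fin 78) (Fin 78) (ZMod 13))) (r.map v)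
  rw [List.map_map] at this
  rw [Units.coeHom_apply] at this
  rw [this]
  exact hwordsA r (List.all_eq_true.1 idOK r hr)

theorem hinv : ∀ l, v (invL Fi22o.INVm l) = (v l)⁻¹ :=
  gen_inv edges code nodes Fi22o.INVm 9 extraE v hwords v_big (by norm_num)
  (by decide +kernel) (by decide +kernel)

theorem hLTF : ∀ l, FreeGroup.lift (fun x => v (code x)) (Fi22o.LTFm.getD l 1) = v l := by
  intro l
  by_cases hl : l < 10
  · interval_cases l
    · exact (map_one _).trans (v_big 0 (Or.inl rfl)).symm
    · exact FreeGroup.lift_apply_of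
    · exact FreeGroup.lift_apply_of
    · exact FreeGroup.lift_apply_of
    · exact FreeGroup.lift_apply_of
    · exact FreeGroup.lift_apply_of
    · exact FreeGroup.lift_apply_of
    · exact FreeGroup.lift_apply_of
    · exact FreeGroup.lift_apply_of
    · exact FreeGroup.lift_apply_of
  · rw [List.getD_eq_default _ _ (by
      have : Fi22o.LTFm.length = 10 := rfl
      omega), map_one, v_big l (Or.inr (by omega))]

theorem hrels : ∀ r ∈ coxRelators edges ∪ {r | r ∈ extra},
    FreeGroup.lift (fun x => v (code x)) r = 1 :=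
  gen_rels edges extra Fi22o.LTFm code nodes Fi22o.INVm 9 extraE v hwords hinv (by decide)
  (by
    intro r hr
    have : extraE.map (fun e => e.eval (fun l => Fi22o.LTFm.getD l 1)) = extra := rfl
    rw [← this] at hr
    obtain ⟨e, he, h⟩ := List.mem_map.1 hr
    exact ⟨e, he, h⟩) hLTF

/-- the linear representation -/
noncomputable def rho : Cfsg.Spor.Fi22 →* GL (Fin 78) (ZMod 13) :=
  PresentedGroup.toGroup (f := fun x => v (code x)) hrels

theorem entry : ent q (mats 1) ((1 : Fin 78) : ℕ) ((8 : Fin 78) : ℕ) = 1 := by decide +kernel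

theorem A_apply (X : ℕ) (i j : Fin 78) :
    (toMat q X : Matrix (Fin 78) (Fin 78) (ZMod 13)) i j = ((ent q X i j : ℕ) : ZMod 13) := rfl

theorem v_one_ne : v 1 ≠ 1 := by
  intro h
  have h1 : A 1 = 1 := by rw [← v_val, h, Units.val_one]
  have h2 := congrFun (congrFun h1 1) 8
  rw [A, A_apply, entry, Matrix.one_apply] at h2
  revert h2
  decide

theorem rho_a : rho (PresentedGroup.of Gen.a) = v 1 := PresentedGroup.toGroup.of hrels

theorem rho_injective (hs : IsSimpleGroup Cfsg.Spor.Fi22) : Function.Injective rho := by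
  rw [← MonoidHom.ker_eq_bot_iff]
  rcases hs.eq_bot_or_eq_top_of_normal rho.ker inferInstance with h | h
  · exact h
  · exfalso
    have : PresentedGroup.of Gen.a ∈ rho.ker := by rw [h]; exact Subgroup.mem_top _
    rw [MonoidHom.mem_ker, rho_a] at this
    exact v_one_ne this

end Cfsg.Agent.Lib.Helper11.Fi22Rep
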